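import Cfsg.Agent.Lib.MinIndexSpTwo.Main

/-!
The orthogonal group of minus type as a subgroup of the symplectic group over the field with two
elements, and the projective version of the bound.
-/

set_option autoImplicit false

namespace Cfsg.Agent.Lib.MinIndexSpTwo

open Matrix Module Cfsg.Agent.Lib.Forms Cfsg.Agent.Lib.Classical
open Cfsg.Agent.Lib.MinDegForms.SpEven

universe u

attribute [local instance] _root_.Classical.propDecidable

variable {F : Type u} [Field F] [Fintype F] [CharP F 2] {n : ℕ}

/-- The sum of the character over the values of a form. -/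
noncomputable def gauss (v : Vc F n) : ℂ := ∑ x : Vc F n, psi2 F (form v x)

theorem form_eq_shift (hF : Fintype.card F = 2) (v x : Vc F n) :
    form v x = theta (x + v) + theta v := by
  rw [theta_add, form, mul_self_eq hF, stdB_symm v x]
  linear_combination (-theta v) * (CharTwo.two_eq_zero (R := F))

theorem psi2_sum {ι : Type*} (s : Finset ι) (f : ι → F) :
    psi2 F (∑ i ∈ s, f i) = ∏ i ∈ s, psi2 F (f i) := by
  induction s using Finset.induction_on with
  | empty => simp
  | insert a s ha ih => rw [Finset.sum_insert ha, Finset.prod_insert ha, AddChar.map_add_eq_mul, ih]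

theorem gauss_zero (hF : Fintype.card F = 2) : gauss (0 : Vc F n) = 2 ^ n := by
  have h1 : ∑ p : F × F, psi2 F (p.1 * p.2) = 2 := by
    rw [Fintype.sum_prod_type]
    have hrow : ∀ a : F, ∑ b : F, psi2 F (a * b) =
        if a = 0 then ((Fintype.card F : ℕ) : ℂ) else 0 := fun a => by
      simp_rw [mul_comm a]
      rw [AddChar.sum_mulShift a psi2_primitive]
      split_ifs <;> simp
    rw [Finset.sum_congr rfl fun a _ => hrow a]
    rw [Finset.sum_eq_single (0 : F) (fun b _ hb => by rw [if_neg hb]) (fun h => absurd (Finset.mem_univ _) h),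
      if_pos rfl, hF]
    norm_num
  let e : (Fin n → F × F) ≃ Vc F n :=
    { toFun := fun g => Sum.elim (fun i => (g i).1) (fun i => (g i).2)
      invFun := fun x i => (x (.inl i), x (.inr i))
      left_inv := fun g => rfl
      right_inv := fun x => by funext i; rcases i with i | i <;> rfl }
  rw [gauss, ← e.sum_comp]
  have h2 : ∀ g : Fin n → F × F,
      psi2 F (form (0 : Vc F n) (e g)) = ∏ i, psi2 F ((g i).1 * (g i).2) := fun g => by
    rw [form, map_zero, LinearMap.zero_apply, mul_zero, add_zero, theta,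
      psi2_sum]
    rfl
  rw [Finset.sum_congr rfl fun g _ => h2 g, ← Fintype.prod_sum fun (_ : Fin n) (p : F × F) => psi2 F (p.1 * p.2),
    Finset.prod_congr rfl fun i _ => h1, Finset.prod_const, Finset.card_univ, Fintype.card_fin]

theorem gauss_shift (hF : Fintype.card F = 2) (v : Vc F n) :
    gauss v = psi2 F (theta v) * gauss (0 : Vc F n) := by
  rw [gauss, gauss, Finset.mul_sum]
  refine Fintype.sum_equiv (Equiv.addRight v) _ _ fun x => ?_
  rw [← AddChar.map_add_eq_mul, Equiv.coe_addRight, form_eq_shift hF, form, map_zero,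
    LinearMap.zero_apply, mul_zero, add_zero, add_comm]

theorem form_add_left (hF : Fintype.card F = 2) (v u x : Vc F n) :
    form (v + u) x = form v x + stdB n F u x := by
  rw [form, form, mul_self_eq hF, mul_self_eq hF, map_add, LinearMap.add_apply, add_assoc]

theorem gauss_add (hF : Fintype.card F = 2) (v u : Vc F n) :
    gauss (v + u) = psi2 F (form v u) * gauss v := by
  rw [gauss, gauss, Finset.mul_sum]
  refine Fintype.sum_equiv (Equiv.addRight u) _ _ fun x => ?_
  rw [← AddChar.map_add_eq_mul, Equiv.coe_addRight, form_add, form_add_left hF, stdB_symm u x]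
  congr 1
  linear_combination (-(form v u)) * (CharTwo.two_eq_zero (R := F))

theorem exists_theta_one (hn : 1 ≤ n) : ∃ v : Vc F n, theta v = 1 := by
  refine ⟨Sum.elim (Pi.single ⟨0, hn⟩ 1) (Pi.single ⟨0, hn⟩ 1), ?_⟩
  simp [theta, Pi.single_apply]

/-- The subgroup fixing a form of minus type. -/
theorem exists_index (hF : Fintype.card F = 2) (hn : 1 ≤ n) :
    ∃ H : Subgroup (Matrix.symplecticGroup (Fin n) F), H.index = 2 ^ (n - 1) * (2 ^ n - 1) := by
  obtain ⟨v, hv⟩ := exists_theta_one (F := F) hn
  let G := Matrix.symplecticGroup (Fin n) F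
  letI act : MulAction G (Vc F n → F) :=
    { smul := fun g f x => f ((g⁻¹).1 *ᵥ x)
      one_smul := fun f => funext fun x => by
        show f (((1 : G)⁻¹).1 *ᵥ x) = f x
        rw [inv_one, OneMemClass.coe_one, one_mulVec]
      mul_smul := fun g h f => funext fun x => by
        show f (((g * h)⁻¹).1 *ᵥ x) = f ((h⁻¹).1 *ᵥ (g⁻¹).1 *ᵥ x)
        rw [_root_.mul_inv_rev, Submonoid.coe_mul, mulVec_mulVec] }
  refine ⟨MulAction.stabilizer G (form v), ?_⟩
  rw [MulAction.index_stabilizer]
  set Z := Finset.univ.filter fun u : Vc F n => form v u = 0 with hZ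
  have hgv : gauss v = -(2 : ℂ) ^ n := by
    rw [gauss_shift hF, gauss_zero hF, hv]
    rcases psi2_or (1 : F) with h | h
    · exact absurd ((psi2_eq_one_iff hF).1 h) one_ne_zero
    · rw [h, neg_one_mul]
  have horb : MulAction.orbit G (form v) = (fun u => form (v + u)) '' (Z : Set (Vc F n)) := by
    ext f
    constructor
    · rintro ⟨g, rfl⟩
      set f := g • form v with hf
      have hfx : ∀ x, f x = form v ((g⁻¹).1 *ᵥ x) := fun _ => rfl
      have hadd : ∀ x y, f (x + y) + theta (x + y) = (f x + theta x) + (f y + theta y) := by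
        intro x y
        rw [hfx, hfx, hfx, mulVec_add, form_add, theta_add, sp_iso]
        linear_combination (stdB n F x y) * (CharTwo.two_eq_zero (R := F))
      obtain ⟨v', hv'⟩ := exists_rep
        ({ toFun := fun x => f x + theta x
           map_add' := hadd
           map_smul' := fun r x => by
            rcases two_cases hF r with rfl | rfl
            · simp [hfx, form, theta]
            · simp } : Vc F n →ₗ[F] F)
      have hfv' : f = form v' := funext fun x => by
        rw [form, mul_self_eq hF, hv']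
        show f x = theta x + (f x + theta x)
        linear_combination (-(theta x)) * (CharTwo.two_eq_zero (R := F))
      refine ⟨v + v', ?_, ?_⟩
      · simp only [hZ, Finset.coe_filter, Finset.mem_univ, true_and, Set.mem_setOf_eq]
        have hS : gauss v' = gauss v := by
          rw [gauss, gauss, ← hfv']
          refine Fintype.sum_equiv (Equiv.ofBijective (fun x => (g⁻¹).1 *ᵥ x)
            (Finite.injective_iff_bijective.1 fun x y h => ?_)) _ _ fun x => rfl
          have := congrArg (g.1 *ᵥ ·) h
          skip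
          rwa [mulVec_mulVec, mulVec_mulVec, ← Submonoid.coe_mul, mul_inv_cancel,
            OneMemClass.coe_one, one_mulVec, one_mulVec] at this
        rw [← vadd_cancel v v', gauss_add hF, hgv] at hS
        rw [← psi2_eq_one_iff hF]
        have h0 : (-(2 : ℂ) ^ n) ≠ 0 := neg_ne_zero.2 (pow_ne_zero _ two_ne_zero)
        exact (mul_eq_right₀ h0).1 hS
      · show form (v + (v + v')) = f
        rw [vadd_cancel, hfv']
    · rintro ⟨u, hu, rfl⟩
      simp only [hZ, Finset.coe_filter, Finset.mem_univ, true_and, Set.mem_setOf_eq] at hu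
      refine ⟨spT n u 1, funext fun x => ?_⟩
      show form v (((spT n u 1)⁻¹).1 *ᵥ x) = form (v + u) x
      rw [show (spT n u 1)⁻¹ = spT n u 1 from tr_inv u, spT_mulVec, one_mul, form_add,
        form_add_left hF, stdB_symm u x]
      rcases two_cases hF (stdB n F x u) with h | h
      · rw [h, zero_smul, map_zero, add_zero]
        simp [form, theta]
      · rw [h, one_smul, hu, h, add_zero]
  have hinj : Set.InjOn (fun u => form (v + u)) (Z : Set (Vc F n)) := by
    intro a _ b _ h
    refine eq_of_stdB fun x => ?_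
    have := congrFun h x
    simp only [form_add_left hF] at this
    exact add_left_cancel this
  rw [horb, Set.ncard_image_of_injOn hinj, Set.ncard_coe_finset]
  have hcount : gauss v = 2 * (Z.card : ℂ) - ((2 ^ (2 * n) : ℕ) : ℂ) := by
    have e : ∀ x, psi2 F (form v x) = 2 * (if form v x = 0 then 1 else 0) - 1 := fun x => by
      by_cases h : form v x = 0
      · rw [if_pos h, (psi2_eq_one_iff hF).2 h]; norm_num
      · rw [if_neg h, (psi2_or _).resolve_left fun h' => h ((psi2_eq_one_iff hF).1 h')]; norm_num
    rw [gauss, Finset.sum_congr rfl fun x _ => e x, Finset.sum_sub_distrib, ← Finset.mul_sum,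
      Finset.sum_boole, Finset.sum_const, Finset.card_univ, nsmul_eq_mul, mul_one,
      Fintype.card_fun, Fintype.card_sum, Fintype.card_fin, hF, two_mul n]
  rw [hgv] at hcount
  have h2 : ((2 * Z.card + 2 ^ n : ℕ) : ℂ) = ((2 ^ (2 * n) : ℕ) : ℂ) := by
    push_cast at hcount ⊢
    linear_combination -hcount
  have h3 := Nat.cast_injective h2
  obtain ⟨k, rfl⟩ : ∃ k, n = k + 1 := ⟨n - 1, by omega⟩
  rw [Nat.add_sub_cancel]
  have e : 2 ^ (2 * (k + 1)) = 2 * (2 ^ k * 2 ^ (k + 1)) := by rw [← pow_add, ← pow_succ']; congr 1; omega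
  rw [Nat.mul_sub, mul_one]
  rw [e, pow_succ' 2 k] at h3
  rw [pow_succ' 2 k]
  omega

theorem center_eq_bot (hF : Fintype.card F = 2) :
    Subgroup.center (Matrix.symplecticGroup (Fin n) F) = ⊥ := by
  rw [eq_bot_iff]
  intro g hg
  rw [Subgroup.mem_center_iff] at hg
  rw [Subgroup.mem_bot]
  refine sp_ext fun a => ?_
  rw [OneMemClass.coe_one, one_mulVec]
  rcases eq_or_ne a 0 with rfl | ha
  · rw [mulVec_zero]
  obtain ⟨w, hw⟩ := exists_pairing_one (stdB_nondegenerate n (F := F)) ha
  have h : spT n (g.1 *ᵥ a) 1 = spT n a 1 := by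
    rw [← spT_conj, ← hg, mul_inv_cancel_right]
  have h2 : (spT n (g.1 *ᵥ a) 1).1 *ᵥ w = (spT n a 1).1 *ᵥ w := by rw [h]
  rw [spT_mulVec, spT_mulVec, one_mul, one_mul, stdB_symm w a, hw, one_smul] at h2
  have h3 := add_left_cancel h2
  rcases two_cases hF (stdB n F w (g.1 *ᵥ a)) with h0 | h0
  · rw [h0, zero_smul] at h3; exact absurd h3.symm ha
  · rwa [h0, one_smul] at h3

theorem min_index (hF : Fintype.card F = 2) (hn : 3 ≤ n) :
    (∀ H : Subgroup (Cfsg.PSp n F), H ≠ ⊤ → 2 ^ (n - 1) * (2 ^ n - 1) ≤ H.index) ∧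
      ∃ H : Subgroup (Cfsg.PSp n F), H.index = 2 ^ (n - 1) * (2 ^ n - 1) := by
  set π := QuotientGroup.mk' (Subgroup.center (Matrix.symplecticGroup (Fin n) F)) with hπ
  have hs : Function.Surjective π := QuotientGroup.mk'_surjective _
  refine ⟨fun H hH => ?_, ?_⟩
  · obtain ⟨m, rfl⟩ : ∃ m, n = m + 1 := ⟨n - 1, by omega⟩
    rw [← H.index_comap_of_surjective hs, Subgroup.index_eq_card]
    set K := H.comap π with hK
    haveI : Fintype (Matrix.symplecticGroup (Fin (m + 1)) F ⧸ K) := Fintype.ofFinite _
    have hK1 : K ≠ ⊤ := fun e => hH (Subgroup.comap_injective hs (by rw [Subgroup.comap_top]; exact e))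
    have h2 : 2 ≤ Fintype.card (Matrix.symplecticGroup (Fin (m + 1)) F ⧸ K) := by
      have h0 : K.index ≠ 1 := fun e => hK1 (Subgroup.index_eq_one.1 e)
      have h1 := Fintype.card_pos (α := Matrix.symplecticGroup (Fin (m + 1)) F ⧸ K)
      rw [Subgroup.index_eq_card, Nat.card_eq_fintype_card] at h0
      omega
    rw [Nat.card_eq_fintype_card, Nat.add_sub_cancel]
    exact card_bound hF (by omega) h2
  · obtain ⟨H, hH⟩ := exists_index (F := F) hF (by omega : 1 ≤ n)
    have hinj : Function.Injective π := by
      refine (MonoidHom.ker_eq_bot_iff π).1 ?_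
      rw [hπ, QuotientGroup.ker_mk']
      exact center_eq_bot hF
    refine ⟨H.map π, ?_⟩
    rw [← hH]
    exact H.index_map_equiv (MulEquiv.ofBijective π ⟨hinj, hs⟩)

end Cfsg.Agent.Lib.MinIndexSpTwo
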