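import Cfsg.Agent.Lib.MinDegForms.SpEven

/-!
Actions of the symplectic groups over the field with two elements: transvections and the radical
of a point stabiliser.
-/

set_option autoImplicit false

namespace Cfsg.Agent.Lib.MinIndexSpTwo

open Matrix Module Cfsg.Agent.Lib.Forms Cfsg.Agent.Lib.Classical
open Cfsg.Agent.Lib.MinDegForms.SpEven

universe u v

variable {F : Type u} [Field F] [Fintype F]

/-- In a field with two elements. -/
theorem two_cases (hF : Fintype.card F = 2) (c : F) : c = 0 ∨ c = 1 := by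
  classical
  by_contra h
  push Not at h
  have := Finset.card_le_univ ({0, 1, c} : Finset F)
  rw [hF, Finset.card_insert_of_notMem (by simp [h.1.symm]),
    Finset.card_insert_of_notMem (by simp [h.2.symm]), Finset.card_singleton] at this
  omega

theorem charP_two (hF : Fintype.card F = 2) : CharP F 2 :=
  ringChar.of_eq (FiniteField.even_card_iff_char_two.2 (by rw [hF]))

theorem mul_self_eq (hF : Fintype.card F = 2) (c : F) : c * c = c := by
  rcases two_cases hF c with rfl | rfl <;> simp

/-- The transvection with parameter one. -/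
noncomputable def tr (n : ℕ) (a : Vc F n) : Matrix.symplecticGroup (Fin n) F := spT n a 1

variable [CharP F 2] {n : ℕ}

theorem tr_mulVec (a x : Vc F n) : (tr n a).1 *ᵥ x = x + stdB n F x a • a := by
  rw [tr, spT_mulVec, one_mul]

omit [Fintype F] in
theorem tr_mul_self (a : Vc F n) : tr n a * tr n a = 1 := by
  rw [tr, spT_add, CharTwo.add_self_eq_zero, spT_zero_right]

theorem tr_inv (a : Vc F n) : (tr n a)⁻¹ = tr n a := inv_eq_of_mul_eq_one_right (tr_mul_self a)

omit [Fintype F] [CharP F 2] in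
theorem tr_conj (g : Matrix.symplecticGroup (Fin n) F) (a : Vc F n) :
    g * tr n a * g⁻¹ = tr n (g.1 *ᵥ a) := spT_conj n g a 1

theorem tr_comm {a b : Vc F n} (h : stdB n F b a = 0) : tr n a * tr n b = tr n b * tr n a := by
  have := tr_conj (tr n a) b
  rw [tr_mulVec, h, zero_smul, add_zero] at this
  rwa [mul_inv_eq_iff_eq_mul] at this

theorem tr_nonperp {a b : Vc F n} (h : stdB n F b a = 1) :
    tr n a * tr n b * tr n a = tr n (b + a) := by
  have := tr_conj (tr n a) b
  rwa [tr_mulVec, h, one_smul, tr_inv] at this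

variable {m : ℕ}

omit [Fintype F] in
theorem stdB_eVec_up (w : Vc F m) : stdB (m + 1) F (eVec F m) (up w) = 0 := by
  rw [B_up, down_eVec, map_zero, LinearMap.zero_apply]

omit [Fintype F] in
theorem stdB_up_up (w w' : Vc F m) : stdB (m + 1) F (up w) (up w') = stdB m F w w' := by
  rw [B_up, down_up]

theorem rad_central (c : F) : rad ((0 : Vc F m), c) = spT (m + 1) (eVec F m) c := by
  refine sp_ext fun x => ?_
  rw [rad_mulVec, spT_mulVec, B_e]
  simp [theta, up_zero]

theorem rad_pair (w : Vc F m) :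
    tr (m + 1) (eVec F m + up w) * tr (m + 1) (up w) = rad (w, 1 + theta w) := by
  refine sp_ext fun x => ?_
  rw [Submonoid.coe_mul, ← mulVec_mulVec, rad_mulVec, tr_mulVec, tr_mulVec, add_assoc (1 : F),
    CharTwo.add_self_eq_zero, add_zero, one_mul]
  have h : stdB (m + 1) F (up w) (eVec F m + up w) = 0 := by
    rw [map_add, stdB_symm, stdB_eVec_up, (stdB_isAlt (m + 1) (F := F)).self_eq_zero, add_zero]
  simp only [map_add, map_smul, LinearMap.add_apply, LinearMap.smul_apply, smul_eq_mul, h, mul_zero,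
    add_zero, B_e, B_up, down_up, (stdB_isAlt m (F := F)).self_eq_zero]
  have h0 : up w (.inr 0) = 0 := by simp [up]
  simp only [h0, mul_zero, add_zero, zero_add]
  have e : stdB m F (down x) w • up w + stdB m F (down x) w • up w = 0 := by
    rw [← add_smul, CharTwo.add_self_eq_zero, zero_smul]
  linear_combination (norm := module) e

theorem rad_triple (w : Vc F m) :
    tr (m + 1) (eVec F m) * (tr (m + 1) (eVec F m + up w) * tr (m + 1) (up w)) =
      rad (w, theta w) := by
  rw [rad_pair, tr, ← rad_central, ← rad_add, Prod.mk_add_mk, zero_add, ← add_assoc,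
    CharTwo.add_self_eq_zero, zero_add]

/-! ### Actions -/

variable {Ω : Type v} [MulAction (Matrix.symplecticGroup (Fin (m + 1)) F) Ω]

/-- The radical element fixes the point. -/
def Fixes (p : Vc F m × F) (ω : Ω) : Prop := rad p • ω = ω

theorem Fixes.add {p p' : Vc F m × F} {ω : Ω} (h : Fixes p ω) (h' : Fixes p' ω) :
    Fixes (p + p') ω := by
  unfold Fixes at *
  rw [rad_add, mul_smul, h', h]

theorem fixes_zero (ω : Ω) : Fixes ((0 : Vc F m), (0 : F)) ω := by
  unfold Fixes
  rw [rad_central, spT_zero_right, one_smul]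

theorem fixes_smul_rad {p p' : Vc F m × F} {ω : Ω} : Fixes p (rad p' • ω) ↔ Fixes p ω := by
  unfold Fixes
  rw [← mul_smul, ← rad_add, add_comm p p', rad_add, mul_smul, smul_left_cancel_iff]

theorem fixes_central {ω : Ω} :
    Fixes ((0 : Vc F m), (1 : F)) ω ↔ tr (m + 1) (eVec F m) • ω = ω := by
  rw [Fixes, rad_central, tr]

/-- The action of the smaller group on the stabilisers. -/
theorem fixes_emb (g : Matrix.symplecticGroup (Fin m) F) (p : Vc F m × F) (ω : Ω) :
    Fixes (g.1 *ᵥ p.1, p.2 + theta p.1 + theta (g.1 *ᵥ p.1)) (emb g • ω) ↔ Fixes p ω := by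
  unfold Fixes
  rw [← mul_smul, ← emb_rad, mul_smul, smul_left_cancel_iff]

/-- The projection of the stabiliser. -/
noncomputable def projStab (hF : Fintype.card F = 2) (ω : Ω) : Submodule F (Vc F m) where
  carrier := {w : Vc F m | ∃ c : F, Fixes (F := F) (m := m) ((w, c) : Vc F m × F) ω}
  add_mem' := by
    intro w w' hw hw'
    obtain ⟨c, hc⟩ := hw
    obtain ⟨c', hc'⟩ := hw'
    have h := Fixes.add (F := F) (m := m) hc hc'
    rw [Prod.mk_add_mk] at h
    exact ⟨c + c', h⟩
  zero_mem' := ⟨0, fixes_zero (F := F) (m := m) ω⟩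
  smul_mem' := by
    intro r w hw
    rcases two_cases hF r with rfl | rfl
    · rw [zero_smul]; exact ⟨0, fixes_zero (F := F) (m := m) ω⟩
    · rw [one_smul]; exact hw

attribute [local instance] _root_.Classical.propDecidable

variable [DecidableEq F] [Fintype Ω] [DecidableEq Ω]

/-- The vectors orthogonal to the projection of the stabiliser. -/
noncomputable def ann (ω : Ω) : Finset (Vc F m) :=
  Finset.univ.filter fun v => ∀ p : Vc F m × F, Fixes p ω → stdB m F v p.1 = 0

theorem mem_ann {ω : Ω} {v : Vc F m} :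
    v ∈ ann ω ↔ ∀ p : Vc F m × F, Fixes p ω → stdB m F v p.1 = 0 := by simp [ann]

/-- The orbit of the radical. -/
noncomputable def radOrbit (ω : Ω) : Finset Ω :=
  (Finset.univ : Finset (Vc F m × F)).image fun p => rad p • ω

theorem ann_eq_orthogonal (hF : Fintype.card F = 2) (ω : Ω) :
    ((ann (F := F) (m := m) ω : Finset (Vc F m)) : Set (Vc F m)) =
      ((LinearMap.BilinForm.orthogonal (stdB m F) (projStab hF ω) : Submodule F (Vc F m)) :
        Set (Vc F m)) := by
  ext v
  rw [Finset.mem_coe, mem_ann, SetLike.mem_coe, LinearMap.BilinForm.mem_orthogonal_iff]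
  constructor
  · rintro h w ⟨c, hc⟩
    rw [stdB_symm]
    exact h (w, c) hc
  · intro h p hp
    rw [stdB_symm]
    exact h p.1 ⟨p.2, hp⟩

theorem eq_top_of_ann (hF : Fintype.card F = 2) {ω : Ω}
    (h : ∀ v ∈ ann (F := F) (m := m) ω, v = 0) : projStab (m := m) hF ω = ⊤ := by
  have hb : LinearMap.BilinForm.orthogonal (stdB m F) (projStab hF ω) = ⊥ := by
    rw [Submodule.eq_bot_iff]
    intro v hv
    refine h v ?_
    rw [← Finset.mem_coe, ann_eq_orthogonal hF ω]
    exact hv
  have := LinearMap.BilinForm.finrank_orthogonal (stdB_nondegenerate m (F := F))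
    (projStab hF ω)
  rw [hb, finrank_bot] at this
  refine Submodule.eq_top_of_finrank_eq ?_
  exact le_antisymm (Submodule.finrank_le _) (Nat.sub_eq_zero_iff_le.1 this.symm)

/-- An orbit of the radical is at least as large as the annihilator allows. -/
theorem ann_le_orbit (hF : Fintype.card F = 2) (ω : Ω) {c : ℕ}
    (hc : c = 1 ∨ (c = 2 ∧ ¬ Fixes ((0 : Vc F m), (1 : F)) ω)) :
    c * (ann (F := F) (m := m) ω).card ≤ (radOrbit (F := F) (m := m) ω).card := by
  classical
  set S := Finset.univ.filter fun p : Vc F m × F => Fixes p ω with hS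
  set img := S.image Prod.fst with himg
  have horb : (radOrbit (F := F) (m := m) ω).card * S.card = 2 * 2 ^ (2 * m) := by
    have h1 := Finset.card_eq_sum_card_image (fun p : Vc F m × F => rad p • ω) Finset.univ
    have h2 : ∀ y ∈ radOrbit (F := F) (m := m) ω,
        (Finset.univ.filter fun p : Vc F m × F => rad p • ω = y).card = S.card := by
      intro y hy
      obtain ⟨p0, -, rfl⟩ := Finset.mem_image.1 hy
      refine Finset.card_bij (fun p _ => p - p0) ?_ (fun p _ p' _ h => sub_left_inj.1 h) ?_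
      · intro p hp
        refine Finset.mem_filter.2 ⟨Finset.mem_univ _, ?_⟩
        have h := (Finset.mem_filter.1 hp).2
        unfold Fixes
        conv at h => lhs; rw [show p = p0 + (p - p0) by abel, rad_add, mul_smul]
        exact smul_left_cancel _ h
      · intro p hp
        refine ⟨p0 + p, Finset.mem_filter.2 ⟨Finset.mem_univ _, ?_⟩, by abel⟩
        rw [rad_add, mul_smul, show rad p • ω = ω from (Finset.mem_filter.1 hp).2]
    rw [← radOrbit, Finset.sum_congr rfl h2, Finset.sum_const, smul_eq_mul, Finset.card_univ,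
      Fintype.card_prod, Fintype.card_fun, Fintype.card_sum, Fintype.card_fin, hF] at h1
    rw [← h1, mul_comm, two_mul m]
  have hSimg : c * S.card ≤ 2 * img.card := by
    rcases hc with rfl | ⟨rfl, hne⟩
    · have := Finset.card_le_mul_card_image (f := Prod.fst) S 2 (fun w _ => ?_)
      · rw [one_mul]; exact this
      · refine le_trans (Finset.card_le_card_of_injOn Prod.snd (fun _ _ => Finset.mem_univ _)
          (fun p hp p' hp' h => Prod.ext ?_ h)) (by rw [Finset.card_univ, hF])
        rw [(Finset.mem_filter.1 hp).2, (Finset.mem_filter.1 hp').2]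
    · rw [himg, Finset.card_image_of_injOn]
      intro p hp p' hp' h
      refine Prod.ext h ?_
      have hsum := ((Finset.mem_filter.1 hp).2).add ((Finset.mem_filter.1 hp').2)
      rw [show p + p' = ((0 : Vc F m), p.2 + p'.2) from Prod.ext
        (by rw [Prod.fst_add, h]; funext i; exact CharTwo.add_self_eq_zero _) rfl] at hsum
      rcases two_cases hF (p.2 + p'.2) with h0 | h0
      · rwa [add_eq_zero_iff_eq_neg, CharTwo.neg_eq] at h0
      · rw [h0] at hsum; exact absurd hsum hne
  have hprod : img.card * (ann (F := F) (m := m) ω).card ≤ 2 ^ (2 * m) := by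
    have h1 : img.card ≤ 2 ^ finrank F (projStab (m := m) hF ω) := by
      rw [← hF, ← Nat.card_eq_fintype_card, ← Module.natCard_eq_pow_finrank (K := F),
        ← Set.ncard_coe_finset]
      refine le_trans (Set.ncard_le_ncard (t := (projStab (m := m) hF ω : Set (Vc F m))) ?_)
        (le_of_eq (Nat.card_coe_set_eq _).symm)
      intro w hw
      obtain ⟨p, hp, rfl⟩ := Finset.mem_image.1 hw
      exact ⟨p.2, (Finset.mem_filter.1 hp).2⟩
    have h2 : (ann (F := F) (m := m) ω).card =
        2 ^ finrank F (LinearMap.BilinForm.orthogonal (stdB m F) (projStab (m := m) hF ω)) := by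
      rw [← hF, ← Nat.card_eq_fintype_card, ← Module.natCard_eq_pow_finrank (K := F),
        ← Set.ncard_coe_finset, ann_eq_orthogonal hF ω, ← Nat.card_coe_set_eq]
      rfl
    have h3 := LinearMap.BilinForm.finrank_orthogonal (stdB_nondegenerate m (F := F))
      (projStab (m := m) hF ω)
    have h4 := Submodule.finrank_le (projStab (m := m) hF ω)
    rw [Module.finrank_pi, Fintype.card_sum, Fintype.card_fin] at h3 h4
    calc _ ≤ 2 ^ finrank F (projStab (m := m) hF ω) * (ann (F := F) (m := m) ω).card :=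
          Nat.mul_le_mul_right _ h1
      _ = 2 ^ (2 * m) := by
          rw [h2, ← pow_add]; congr 1
          exact (congrArg (_ + ·) h3).trans ((Nat.add_sub_cancel' h4).trans (two_mul m).symm)
  have hS0 : 0 < S.card :=
    Finset.card_pos.2 ⟨(0, 0), Finset.mem_filter.2 ⟨Finset.mem_univ _, fixes_zero ω⟩⟩
  refine Nat.le_of_mul_le_mul_right ?_ hS0
  calc c * (ann (F := F) (m := m) ω).card * S.card = (c * S.card) * (ann (F := F) (m := m) ω).card := by ring
    _ ≤ 2 * img.card * (ann (F := F) (m := m) ω).card := Nat.mul_le_mul_right _ hSimg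
    _ = 2 * (img.card * (ann (F := F) (m := m) ω).card) := mul_assoc _ _ _
    _ ≤ 2 * 2 ^ (2 * m) := Nat.mul_le_mul_left _ hprod
    _ = _ := horb.symm

/-- A nonzero annihilator makes the points with the same behaviour of the centre numerous. -/
theorem lt_card_same (hF : Fintype.card F = 2) (hm : 1 ≤ m) (ω : Ω) {v : Vc F m} (hv : v ≠ 0)
    (hvA : v ∈ ann ω) {c : ℕ} (hc0 : 0 < c)
    (hc : c = 1 ∨ (c = 2 ∧ ¬ Fixes ((0 : Vc F m), (1 : F)) ω)) :
    c * (2 ^ (2 * m) - 1) < (Finset.univ.filter fun ω' : Ω =>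
      tr (m + 1) (eVec F m) • ω' = ω' ↔ tr (m + 1) (eVec F m) • ω = ω).card := by
  classical
  set a := (ann (F := F) (m := m) ω).card with ha
  set Y := Finset.univ.filter fun ω' : Ω =>
      tr (m + 1) (eVec F m) • ω' = ω' ↔ tr (m + 1) (eVec F m) • ω = ω with hY
  set Y' := Y.filter fun ω' : Ω => (ann (F := F) (m := m) ω').card = a with hY'
  set U := (Finset.univ : Finset (Vc F m)).erase 0 with hU
  have hrow : ∀ u ∈ U, c * a ≤ (Y'.filter fun ω' => u ∈ ann ω').card := by
    intro u hu
    obtain ⟨s, hs⟩ := sp_transitive m hv (Finset.ne_of_mem_erase hu)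
    set ωu := emb s • ω with hωu
    have hφ : ∀ p : Vc F m × F, Fixes (s.1 *ᵥ p.1, p.2 + theta p.1 + theta (s.1 *ᵥ p.1)) ωu ↔ Fixes p ω :=
      fun p : Vc F m × F => fixes_emb s p ω
    have hsurj : ∀ p' : Vc F m × F, ∃ p : Vc F m × F, (s.1 *ᵥ p.1, p.2 + theta p.1 + theta (s.1 *ᵥ p.1)) = p' := by
      intro p'
      refine ⟨((s⁻¹).1 *ᵥ p'.1, p'.2 + theta ((s⁻¹).1 *ᵥ p'.1) + theta p'.1), ?_⟩
      have e : s.1 *ᵥ (s⁻¹).1 *ᵥ p'.1 = p'.1 := by
        rw [mulVec_mulVec, ← Submonoid.coe_mul, mul_inv_cancel, OneMemClass.coe_one, one_mulVec]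
      simp only [e]
      refine Prod.ext rfl ?_
      change p'.2 + theta ((s⁻¹).1 *ᵥ p'.1) + theta p'.1 + theta ((s⁻¹).1 *ᵥ p'.1) + theta p'.1 = p'.2
      linear_combination (theta ((s⁻¹).1 *ᵥ p'.1) + theta p'.1) * (CharTwo.two_eq_zero (R := F))
    have hann : ∀ x, s.1 *ᵥ x ∈ ann ωu ↔ x ∈ ann ω := by
      intro x
      rw [mem_ann, mem_ann]
      constructor
      · intro h p hp
        have := h _ ((hφ p).2 hp)
        rwa [sp_iso] at this
      · intro h p' hp'
        obtain ⟨p, rfl⟩ := hsurj p'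
        rw [sp_iso]
        exact h p ((hφ p).1 hp')
    have hsame : ∀ p' : Vc F m × F, ∀ ω₁ : Ω, ann (F := F) (m := m) (rad p' • ω₁) = ann ω₁ :=
      fun p' ω₁ => Finset.ext fun x => by simp [mem_ann, fixes_smul_rad]
    have hcard : (ann (F := F) (m := m) ωu).card = a := by
      refine (Finset.card_bij (fun x _ => s.1 *ᵥ x) (fun x hx => (hann x).2 hx) ?_ ?_).symm
      · intro x _ y _ h
        have := congrArg ((s⁻¹).1 *ᵥ ·) h
        simpa [mulVec_mulVec, ← Submonoid.coe_mul] using this
      · intro y hy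
        have e : s.1 *ᵥ (s⁻¹).1 *ᵥ y = y := by
          rw [mulVec_mulVec, ← Submonoid.coe_mul, mul_inv_cancel, OneMemClass.coe_one, one_mulVec]
        exact ⟨(s⁻¹).1 *ᵥ y, (hann _).1 (by rwa [e]), e⟩
    have hstat : Fixes ((0 : Vc F m), (1 : F)) ωu ↔ Fixes ((0 : Vc F m), (1 : F)) ω := by
      have := hφ ((0 : Vc F m), (1 : F))
      simpa [theta] using this
    rw [← hcard]
    refine le_trans (ann_le_orbit hF ωu (by rwa [hstat])) (Finset.card_le_card fun y hy => ?_)
    obtain ⟨p', -, rfl⟩ := Finset.mem_image.1 hy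
    refine Finset.mem_filter.2 ⟨Finset.mem_filter.2 ⟨Finset.mem_filter.2 ⟨Finset.mem_univ _, ?_⟩,
      by rw [hsame, hcard]⟩, by rw [hsame, ← hs, hann]; exact hvA⟩
    rw [← fixes_central, ← fixes_central, fixes_smul_rad, hstat]
  have hdc := Finset.card_nsmul_le_sum U _ _ hrow
  have hcol : ∀ ω' ∈ Y', (U.filter fun u => u ∈ ann ω').card ≤ a - 1 := by
    intro ω' hω'
    rw [← (Finset.mem_filter.1 hω').2, ← Finset.card_erase_of_mem (s := ann ω') (a := 0)
      (mem_ann.2 fun p _ => by simp)]
    refine Finset.card_le_card fun x hx => ?_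
    obtain ⟨hx1, hx2⟩ := Finset.mem_filter.1 hx
    exact Finset.mem_erase.2 ⟨Finset.ne_of_mem_erase hx1, hx2⟩
  have hdc2 := Finset.sum_le_card_nsmul Y' _ _ hcol
  have hswap : ∑ u ∈ U, (Y'.filter fun ω' => u ∈ ann ω').card =
      ∑ ω' ∈ Y', (U.filter fun u => u ∈ ann ω').card := by
    simp only [Finset.card_filter]; exact Finset.sum_comm
  rw [hswap] at hdc
  have hUc : U.card = 2 ^ (2 * m) - 1 := by
    rw [hU, Finset.card_erase_of_mem (Finset.mem_univ _), Finset.card_univ, Fintype.card_fun,
      Fintype.card_sum, Fintype.card_fin, hF, two_mul m]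
  simp only [smul_eq_mul, hUc] at hdc hdc2
  have hpow : 1 < 2 ^ (2 * m) := Nat.one_lt_two_pow (by omega)
  have hle : Y'.card ≤ Y.card := Finset.card_filter_le _ _
  have hapos : 0 < a := Finset.card_pos.2 ⟨v, hvA⟩
  by_contra hlt
  push Not at hlt
  have h3 := (hdc.trans hdc2).trans (Nat.mul_le_mul_right _ (hle.trans hlt))
  obtain ⟨a', ha'⟩ : ∃ a', a = a' + 1 := ⟨a - 1, by omega⟩
  rw [ha', Nat.add_sub_cancel] at h3
  have : 0 < c * (2 ^ (2 * m) - 1) := Nat.mul_pos hc0 (by omega)
  nlinarith

end Cfsg.Agent.Lib.MinIndexSpTwo
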