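import Cfsg.Agent.Lib.MinIndexSpTwo.Basic

/-!
The minimal index of a proper subgroup of the symplectic groups over the field with two elements.
-/

set_option autoImplicit false

namespace Cfsg.Agent.Lib.MinIndexSpTwo

open Matrix Module Cfsg.Agent.Lib.Forms Cfsg.Agent.Lib.Classical
open Cfsg.Agent.Lib.MinDegForms.SpEven

universe u v

attribute [local instance] _root_.Classical.propDecidable

variable {F : Type u} [Field F] [Fintype F] [CharP F 2] {n m : ℕ}

omit [Fintype F] in
theorem vadd_self (a : Vc F n) : a + a = 0 := funext fun i => CharTwo.add_self_eq_zero _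

omit [Fintype F] in
theorem vadd_cancel (a c : Vc F n) : a + (a + c) = c := by
  rw [← add_assoc, vadd_self, zero_add]

theorem eq_of_stdB {v v' : Vc F n} (h : ∀ w, stdB n F v w = stdB n F v' w) : v = v' :=
  (LinearMap.BilinForm.toDual (stdB n F) (stdB_nondegenerate n (F := F))).injective
    (LinearMap.ext h)

theorem exists_rep (L : Vc F n →ₗ[F] F) : ∃ v, ∀ w, stdB n F v w = L w :=
  ⟨_, LinearMap.BilinForm.apply_toDual_symm_apply (hB := stdB_nondegenerate n (F := F)) L⟩

theorem form_eq_zero_iff (hF : Fintype.card F = 2) {v w : Vc F n} :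
    form v w = 0 ↔ theta w = stdB n F v w := by
  rw [form, mul_self_eq hF, add_eq_zero_iff_eq_neg, CharTwo.neg_eq]

theorem psi2_eq_one_iff (hF : Fintype.card F = 2) {x : F} : psi2 F x = 1 ↔ x = 0 := by
  rw [psi2_eq_one]
  refine ⟨?_, fun h => ⟨0, by rw [h, mul_zero, add_zero]⟩⟩
  rintro ⟨r, rfl⟩
  rw [mul_self_eq hF, CharTwo.add_self_eq_zero]

section Act

variable {Ω : Type v} [MulAction (Matrix.symplecticGroup (Fin (m + 1)) F) Ω]

theorem smul_tr (g : Matrix.symplecticGroup (Fin (m + 1)) F) (b : Vc F (m + 1)) (y : Ω) :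
    g • tr (m + 1) b • y = tr (m + 1) (g.1 *ᵥ b) • g • y := by
  rw [← tr_conj, ← mul_smul, ← mul_smul, inv_mul_cancel_right]

theorem smul_sq (a : Vc F (m + 1)) (y : Ω) : tr (m + 1) a • tr (m + 1) a • y = y := by
  rw [← mul_smul, tr_mul_self, one_smul]

theorem smul_comm_tr {a b : Vc F (m + 1)} (h : stdB (m + 1) F b a = 0) (y : Ω) :
    tr (m + 1) a • tr (m + 1) b • y = tr (m + 1) b • tr (m + 1) a • y := by
  rw [← mul_smul, tr_comm h, mul_smul]

/-- The graph of the stabiliser of a point moved by the centre. -/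
theorem exists_graph (hF : Fintype.card F = 2) {ω : Ω}
    (hω : ¬ Fixes ((0 : Vc F m), (1 : F)) ω) (htop : projStab (m := m) hF ω = ⊤) :
    ∃ v : Vc F m, ∀ (w : Vc F m) (c : F), Fixes (w, c) ω ↔ c = stdB m F v w := by
  have hall : ∀ w : Vc F m, w ∈ projStab (m := m) hF ω := fun w => by rw [htop]; trivial
  choose u hu using hall
  have huniq : ∀ (w : Vc F m) (c c' : F), Fixes (w, c) ω → Fixes (w, c') ω → c = c' := by
    intro w c c' h h'
    have h2 := Fixes.add (F := F) (m := m) h h'
    rw [Prod.mk_add_mk, vadd_self] at h2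
    rcases two_cases hF (c + c') with h0 | h0
    · rwa [add_eq_zero_iff_eq_neg, CharTwo.neg_eq] at h0
    · rw [h0] at h2; exact absurd h2 hω
  let L : Vc F m →ₗ[F] F :=
    { toFun := u
      map_add' := fun x y => huniq _ _ _ (hu (x + y)) (by
        have h := Fixes.add (F := F) (m := m) (hu x) (hu y)
        rwa [Prod.mk_add_mk] at h)
      map_smul' := fun r x => by
        rcases two_cases hF r with rfl | rfl
        · simpa using huniq _ _ _ (hu 0) (fixes_zero ω)
        · simp }
  obtain ⟨v, hv⟩ := exists_rep L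
  refine ⟨v, fun w c => ⟨fun h => ?_, fun h => ?_⟩⟩
  · rw [hv]; exact huniq w c (u w) h (hu w)
  · rw [h, hv]; exact hu w

theorem fixes_all (hF : Fintype.card F = 2) {ω : Ω}
    (hω : Fixes ((0 : Vc F m), (1 : F)) ω) (htop : projStab (m := m) hF ω = ⊤)
    (w : Vc F m) (c : F) : Fixes (w, c) ω := by
  have h : w ∈ projStab (m := m) hF ω := by rw [htop]; trivial
  obtain ⟨c', hc'⟩ := h
  rcases two_cases hF (c' + c) with h0 | h0
  · rw [add_eq_zero_iff_eq_neg, CharTwo.neg_eq] at h0
    rwa [h0] at hc'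
  · have h2 := Fixes.add (F := F) (m := m) hc' hω
    rw [Prod.mk_add_mk, add_zero] at h2
    rwa [← h0, ← add_assoc, CharTwo.add_self_eq_zero, zero_add] at h2

/-- A moved point with a graph gives many moved points. -/
theorem card_moved (hF : Fintype.card F = 2) [Fintype Ω] {ω : Ω} {v : Vc F m}
    (hω : ¬ Fixes ((0 : Vc F m), (1 : F)) ω)
    (hv : ∀ (w : Vc F m) (c : F), Fixes (w, c) ω ↔ c = stdB m F v w) :
    2 ^ (2 * m) - 2 ^ m ≤
      (Finset.univ.filter fun y : Ω => ¬ tr (m + 1) (eVec F m) • y = y).card := by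
  have hq := card_form_even (F := F) v
  rw [hF] at hq
  refine hq.trans ?_
  set Z := Finset.univ.filter fun u : Vc F m => psi2 F (form v u) = 1 with hZ
  have hcard : (Z ×ˢ (Finset.univ : Finset F)).card = 2 * Z.card := by
    rw [Finset.card_product, Finset.card_univ, hF, mul_comm]
  rw [← hcard]
  let f : Vc F m × F → Ω := fun p => rad ((0 : Vc F m), p.2) • (emb (spT m p.1 1) • ω)
  have hmoved : ∀ p : Vc F m × F, ¬ Fixes ((0 : Vc F m), (1 : F)) (f p) := by
    intro p
    simp only [f, fixes_smul_rad]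
    intro h
    refine hω ((fixes_emb (spT m p.1 1) ((0 : Vc F m), (1 : F)) ω).1 ?_)
    simpa [theta] using h
  have hgraph : ∀ p ∈ Z ×ˢ (Finset.univ : Finset F), ∀ w : Vc F m,
      Fixes (w, stdB m F (v + p.1) w) (f p) := by
    intro p hp w
    obtain ⟨hu, -⟩ := Finset.mem_product.1 hp
    rw [hZ, Finset.mem_filter, psi2_eq_one_iff hF, form_eq_zero_iff hF] at hu
    simp only [f, fixes_smul_rad]
    set g := spT m p.1 1
    set t := stdB m F w p.1 with ht
    have hg : g.1 *ᵥ w = w + t • p.1 := by rw [spT_mulVec, one_mul]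
    have hgg : g.1 *ᵥ (g.1 *ᵥ w) = w := by
      rw [mulVec_mulVec, ← Submonoid.coe_mul, spT_add, CharTwo.add_self_eq_zero, spT_zero_right,
        OneMemClass.coe_one, one_mulVec]
    have h := (fixes_emb g (g.1 *ᵥ w, stdB m F v (g.1 *ᵥ w)) ω).2 ((hv _ _).2 rfl)
    simp only [hgg] at h
    have e : stdB m F v (g.1 *ᵥ w) + theta (g.1 *ᵥ w) + theta w = stdB m F (v + p.1) w := by
      rw [hg, theta_add, theta_smul, map_add, map_smul, map_smul, map_add, LinearMap.add_apply,
        smul_eq_mul, smul_eq_mul, stdB_symm p.1 w, ← ht, hu.2, mul_self_eq hF]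
      linear_combination (theta w + t * stdB m F v p.1) * (CharTwo.two_eq_zero (R := F))
    rwa [e] at h
  refine Finset.card_le_card_of_injOn f (fun p _ => ?_) (fun p hp p' hp' h => ?_)
  · exact Finset.mem_filter.2 ⟨Finset.mem_univ _, fun h => hmoved p (fixes_central.2 h)⟩
  · have he : p.1 = p'.1 := by
      refine add_left_cancel (a := v) (eq_of_stdB fun w => ?_)
      have h1 := hgraph p hp w
      have h2 := hgraph p' hp' w
      rw [← h] at h2
      have h3 := Fixes.add (F := F) (m := m) h1 h2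
      rw [Prod.mk_add_mk, vadd_self] at h3
      rcases two_cases hF (stdB m F (v + p.1) w + stdB m F (v + p'.1) w) with h0 | h0
      · rwa [add_eq_zero_iff_eq_neg, CharTwo.neg_eq] at h0
      · rw [h0] at h3; exact absurd h3 (hmoved p)
    refine Prod.ext he ?_
    by_contra hne
    refine hω ((fixes_emb (spT m p.1 1) ((0 : Vc F m), (1 : F)) ω).1 ?_)
    suffices Fixes ((0 : Vc F m), (1 : F)) (emb (spT m p.1 1) • ω) by simpa [theta] using this
    simp only [f, ← he] at h
    rw [fixes_central]
    rcases two_cases hF p.2 with h0 | h0 <;> rcases two_cases hF p'.2 with h0' | h0'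
    · exact absurd (h0.trans h0'.symm) hne
    · rw [h0, h0', rad_central, rad_central, spT_zero_right, one_smul] at h
      exact h.symm
    · rw [h0, h0', rad_central, rad_central, spT_zero_right, one_smul] at h
      exact h
    · exact absurd (h0.trans h0'.symm) hne

theorem perp_cases (hF : Fintype.card F = 2) {x : Vc F (m + 1)}
    (hx : stdB (m + 1) F x (eVec F m) = 0) :
    x = up (down x) ∨ x = eVec F m + up (down x) := by
  rw [B_e] at hx
  have h := decomp x
  rw [hx, zero_smul, add_zero] at h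
  rcases two_cases hF (x (.inl 0)) with h0 | h0
  · left; rwa [h0, zero_smul, zero_add] at h
  · right; rwa [h0, one_smul] at h

/-- Transvections in the centraliser of a transvection, from the stabilisers. -/
theorem pair_rules (hF : Fintype.card F = 2) (hall : ∀ y : Ω, projStab (m := m) hF y = ⊤)
    {a x : Vc F (m + 1)} (ha : a ≠ 0) (hx : stdB (m + 1) F x a = 0) (y : Ω) :
    tr (m + 1) (a + x) • tr (m + 1) x • y = y ∨
      (tr (m + 1) a • y ≠ y ∧
        tr (m + 1) a • tr (m + 1) (a + x) • tr (m + 1) x • y = y) := by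
  have he0 : eVec F m ≠ 0 := by simp [eVec]
  obtain ⟨g, hg⟩ := sp_transitive (m + 1) he0 ha
  obtain ⟨y', rfl⟩ : ∃ y', g • y' = y := ⟨g⁻¹ • y, smul_inv_smul g y⟩
  obtain ⟨x', rfl⟩ : ∃ x', g.1 *ᵥ x' = x := ⟨(g⁻¹).1 *ᵥ x, by
    rw [mulVec_mulVec, ← Submonoid.coe_mul, mul_inv_cancel, OneMemClass.coe_one, one_mulVec]⟩
  subst hg
  rw [sp_iso] at hx
  rw [← mulVec_add]
  simp only [← smul_tr, ne_eq, smul_left_cancel_iff]
  have key : ∀ w : Vc F m,
      tr (m + 1) (eVec F m + up w) • tr (m + 1) (up w) • y' = y' ∨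
      (¬ tr (m + 1) (eVec F m) • y' = y' ∧
        tr (m + 1) (eVec F m) • tr (m + 1) (eVec F m + up w) • tr (m + 1) (up w) • y' = y') := by
    intro w
    by_cases hE : tr (m + 1) (eVec F m) • y' = y'
    · have h := fixes_all hF (fixes_central.2 hE) (hall y') w (1 + theta w)
      unfold Fixes at h
      rw [← rad_pair, mul_smul] at h
      exact Or.inl h
    · obtain ⟨v, hv⟩ := exists_graph hF (fun h => hE (fixes_central.1 h)) (hall y')
      rcases two_cases hF (stdB m F v w + theta w) with h0 | h0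
      · rw [add_eq_zero_iff_eq_neg, CharTwo.neg_eq] at h0
        have h := (hv w (theta w)).2 h0.symm
        unfold Fixes at h
        rw [← rad_triple, mul_smul, mul_smul] at h
        exact Or.inr ⟨hE, h⟩
      · have h := (hv w (1 + theta w)).2 (by
          rw [← h0, add_assoc, CharTwo.add_self_eq_zero, add_zero])
        unfold Fixes at h
        rw [← rad_pair, mul_smul] at h
        exact Or.inl h
  rcases perp_cases hF hx with h | h
  · rw [h]; exact key _
  · rw [h, vadd_cancel]
    have hc : stdB (m + 1) F (eVec F m + up (down x')) (up (down x')) = 0 := by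
      rw [map_add, LinearMap.add_apply, stdB_eVec_up, (stdB_isAlt (m + 1) (F := F)).self_eq_zero,
        add_zero]
    rw [smul_comm_tr hc]
    exact key _

end Act

omit [CharP F 2] in
theorem exists_perp_pair (hF : Fintype.card F = 2) (hm : 2 ≤ m) (x y : Vc F m) :
    ∃ z : Vc F m, z ≠ 0 ∧ stdB m F z x = 0 ∧ stdB m F z y = 0 := by
  have hcard : Fintype.card (F × F) < Fintype.card (Vc F m) := by
    rw [Fintype.card_prod, Fintype.card_fun, Fintype.card_sum, Fintype.card_fin, hF]
    calc 2 * 2 < 2 ^ 3 := by norm_num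
      _ ≤ 2 ^ (m + m) := Nat.pow_le_pow_right (by omega) (by omega)
  obtain ⟨z1, z2, hne, h⟩ := Fintype.exists_ne_map_eq_of_card_lt
    (fun z : Vc F m => (stdB m F z x, stdB m F z y)) hcard
  simp only [Prod.mk.injEq] at h
  exact ⟨z1 - z2, sub_ne_zero.2 hne, by rw [map_sub, LinearMap.sub_apply, h.1, sub_self],
    by rw [map_sub, LinearMap.sub_apply, h.2, sub_self]⟩

theorem exists_singular_pair (hF : Fintype.card F = 2) (hm : 2 ≤ m) (v : Vc F m) :
    ∃ x y : Vc F m, x ≠ 0 ∧ y ≠ 0 ∧ form v x = 0 ∧ form v y = 0 ∧ stdB m F x y = 1 := by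
  obtain ⟨x, hx0, hx⟩ := exists_singular (F := F) hm v
  obtain ⟨y, hy⟩ := exists_pairing_one (stdB_nondegenerate m (F := F)) hx0
  obtain ⟨y', hy', hB⟩ : ∃ y', form v y' = 0 ∧ stdB m F x y' = 1 := by
    rcases two_cases hF (form v y) with h | h
    · exact ⟨y, h, hy⟩
    · refine ⟨x + y, ?_, ?_⟩
      · rw [form_add, hx, h, hy, zero_add, CharTwo.add_self_eq_zero]
      · rw [map_add, (stdB_isAlt m (F := F)).self_eq_zero, hy, zero_add]
  refine ⟨x, y', hx0, fun h => ?_, hx, hy', hB⟩
  rw [h, map_zero] at hB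
  exact zero_ne_one hB

theorem exists_perp_one (hF : Fintype.card F = 2) (hm : 2 ≤ m) (v : Vc F m) {x : Vc F m}
    (hx : x ≠ 0) : ∃ w : Vc F m, stdB m F w x = 0 ∧ form v w = 1 := by
  obtain ⟨y, hy⟩ := exists_pairing_one (stdB_nondegenerate m (F := F)) hx
  obtain ⟨z, hz0, hzx, hzy⟩ := exists_perp_pair hF hm x y
  obtain ⟨t, ht⟩ := exists_pairing_one (stdB_nondegenerate m (F := F)) hz0
  set t' := t + stdB m F t x • y with ht'
  have h1 : stdB m F t' x = 0 := by
    rw [ht', map_add, map_smul, LinearMap.add_apply, LinearMap.smul_apply, smul_eq_mul,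
      stdB_symm y x, hy, mul_one, CharTwo.add_self_eq_zero]
  have h2 : stdB m F z t' = 1 := by
    rw [ht', map_add, map_smul, smul_eq_mul, hzy, mul_zero, add_zero, ht]
  rcases two_cases hF (form v z) with a | a
  · rcases two_cases hF (form v t') with b | b
    · exact ⟨z + t', by rw [map_add, LinearMap.add_apply, hzx, h1, add_zero],
        by rw [form_add, a, b, h2, add_zero, zero_add]⟩
    · exact ⟨t', h1, b⟩
  · exact ⟨z, hzx, a⟩

/-- With all stabilisers projecting onto everything the centre fixes every point. -/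
theorem centre_fixes (hF : Fintype.card F = 2) (hm : 2 ≤ m) {Ω : Type v}
    [MulAction (Matrix.symplecticGroup (Fin (m + 1)) F) Ω]
    (hall : ∀ y : Ω, projStab (m := m) hF y = ⊤) (ω : Ω) :
    tr (m + 1) (eVec F m) • ω = ω := by
  by_contra hE
  obtain ⟨v, hv⟩ := exists_graph hF (fun h => hE (fixes_central.1 h)) (hall ω)
  set e := eVec F m with he
  set T := tr (F := F) (m + 1) with hT
  have hne : ∀ {w : Vc F m}, w ≠ 0 → up w ≠ 0 := fun hw h => hw (by
    have := congrArg down h
    rwa [down_up, show down (0 : Vc F (m + 1)) = 0 from funext fun i => by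
      rcases i with i | i <;> rfl] at this)
  have hue : ∀ w : Vc F m, stdB (m + 1) F (up w) e = 0 := fun w => by
    rw [stdB_symm, stdB_eVec_up]
  -- vectors with form one
  have hone : ∀ w : Vc F m, form v w = 1 →
      T (up w) • ω = T e • ω ∧ T (e + up w) • ω = T e • ω := by
    intro w hw
    have hw0 : up w ≠ 0 := hne fun h => by
      rw [h] at hw; simp [form, theta] at hw
    have hpair : T (e + up w) • T (up w) • ω = ω := by
      have h := (hv w (1 + theta w)).2 (by
        rw [form, mul_self_eq hF] at hw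
        rw [← hw]
        linear_combination (theta w) * (CharTwo.two_eq_zero (R := F)))
      unfold Fixes at h
      rwa [← rad_pair, mul_smul] at h
    have hWC : T (up w) • ω = T (e + up w) • ω := by
      conv_rhs => rw [← hpair]
      rw [smul_sq]
    have hWne : T (up w) • ω ≠ ω := by
      intro h
      rcases pair_rules hF hall hw0 (by rw [stdB_eVec_up] : stdB (m + 1) F e (up w) = 0) ω with h' | h'
      · apply hE
        rw [add_comm (up w) e] at h'
        have := congrArg (T (e + up w) • ·) h'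
        rw [smul_sq] at this
        rw [this, ← hWC, h]
      · exact h'.1 h
    rcases pair_rules hF hall hw0 (by rw [stdB_eVec_up] : stdB (m + 1) F e (up w) = 0) ω with h' | h'
    · rw [add_comm (up w) e] at h'
      have := congrArg (T (e + up w) • ·) h'
      rw [smul_sq] at this
      exact ⟨hWC.trans this.symm, this.symm⟩
    · exfalso
      apply hE
      have h2 := h'.2
      rw [add_comm (up w) e] at h2
      have hc : stdB (m + 1) F e (e + up w) = 0 := by
        rw [map_add, (stdB_isAlt (m + 1) (F := F)).self_eq_zero, stdB_eVec_up, add_zero]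
      rw [smul_comm_tr hc, smul_comm_tr (by rw [stdB_eVec_up] : stdB (m + 1) F e (up w) = 0),
        ← hWC, smul_sq] at h2
      exact h2
  -- sums
  have hsum : ∀ a c : Vc F (m + 1), stdB (m + 1) F c a = 0 → stdB (m + 1) F c e = 0 →
      T a • ω = T e • ω → T c • ω = T e • ω →
      T (a + c) • ω = T e • ω ∨ T (a + c) • ω = ω := by
    intro a c hca hce ha hc
    have ha0 : a ≠ 0 := fun h => hE (by
      rw [← ha, h, hT]; simp [tr, spT_zero])
    have hx : stdB (m + 1) F (a + c) a = 0 := by
      rw [map_add, LinearMap.add_apply, hca, (stdB_isAlt (m + 1) (F := F)).self_eq_zero, add_zero]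
    rcases pair_rules hF hall ha0 hx ω with h | ⟨-, h⟩
    · rw [vadd_cancel] at h
      left
      have := congrArg (T c • ·) h
      rw [smul_sq] at this
      rw [this, hc]
    · rw [vadd_cancel] at h
      right
      have := congrArg (T c • ·) (congrArg (T a • ·) h)
      rw [smul_sq, smul_sq, ha, smul_comm_tr (by rw [stdB_symm]; exact hce), hc, smul_sq] at this
      exact this
  -- singular vectors
  have hsing : ∀ w : Vc F m, w ≠ 0 → form v w = 0 →
      ∃ a : Vc F (m + 1), down a = w ∧ stdB (m + 1) F a e = 0 ∧ T a • ω = ω := by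
    intro w hw0 hw
    obtain ⟨w1, h1w, hw1⟩ := exists_perp_one hF hm v hw0
    have hw2 : form v (w1 + w) = 1 := by rw [form_add, hw1, hw, h1w, add_zero, add_zero]
    have hB : stdB m F (w1 + w) w1 = 0 := by
      rw [map_add, LinearMap.add_apply, (stdB_isAlt m (F := F)).self_eq_zero, stdB_symm, h1w,
        add_zero]
    obtain ⟨p1, p2⟩ := hone w1 hw1
    obtain ⟨q1, -⟩ := hone _ hw2
    have e1 : up w1 + up (w1 + w) = up w := by rw [← up_add, vadd_cancel]
    have e2 : e + up w1 + up (w1 + w) = e + up w := by rw [add_assoc, e1]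
    have r1 := hsum (up w1) (up (w1 + w)) (by rw [stdB_up_up, hB]) (hue _) p1 q1
    have r2 := hsum (e + up w1) (up (w1 + w))
      (by rw [map_add, hue, stdB_up_up, hB, add_zero]) (hue _) p2 q1
    rw [e1] at r1
    rw [e2] at r2
    rcases r1 with r1 | r1
    · rcases r2 with r2 | r2
      · exfalso
        have h := (hv w (theta w)).2 ((form_eq_zero_iff hF).1 hw)
        unfold Fixes at h
        rw [← rad_triple, mul_smul, mul_smul, r1] at h
        have hc : stdB (m + 1) F e (e + up w) = 0 := by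
          rw [map_add, (stdB_isAlt (m + 1) (F := F)).self_eq_zero, stdB_eVec_up, add_zero]
        rw [smul_comm_tr hc, r2, smul_sq] at h
        exact hE h
      · refine ⟨e + up w, by rw [down_add, down_up, he, down_eVec, zero_add], ?_, r2⟩
        rw [map_add, LinearMap.add_apply, (stdB_isAlt (m + 1) (F := F)).self_eq_zero, hue, add_zero]
    · exact ⟨up w, down_up w, hue w, r1⟩
  obtain ⟨x, y, hx0, hy0, hx, hy, hxy⟩ := exists_singular_pair hF hm v
  obtain ⟨a, ha, hae, haω⟩ := hsing x hx0 hx
  obtain ⟨b, hb, hbe, hbω⟩ := hsing y hy0 hy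
  have hba : stdB (m + 1) F b a = 1 := by
    rw [he, B_e] at hae hbe
    rw [stdB_split, ha, hb, hbe, hae, mul_zero, zero_mul, zero_add, zero_add, stdB_symm, hxy]
  have hfix : T (b + a) • ω = ω := by
    rw [hT, ← tr_nonperp hba, mul_smul, mul_smul, ← hT, haω, hbω, haω]
  have hform : form v (y + x) = 1 := by
    rw [form_add, hx, hy, stdB_symm, hxy, zero_add, zero_add]
  obtain ⟨p1, p2⟩ := hone _ hform
  have hd : down (b + a) = y + x := by rw [down_add, ha, hb]
  have hperp : stdB (m + 1) F (b + a) e = 0 := by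
    rw [map_add, LinearMap.add_apply, hbe, hae, add_zero]
  rcases perp_cases hF hperp with h | h
  · rw [hd] at h; rw [h, p1] at hfix; exact hE hfix
  · rw [hd] at h; rw [h, ← he, p2] at hfix; exact hE hfix

/-- A transitive action on at least two points has at least the expected degree. -/
theorem card_bound (hF : Fintype.card F = 2) (hm : 2 ≤ m) {Ω : Type v} [Fintype Ω]
    [MulAction (Matrix.symplecticGroup (Fin (m + 1)) F) Ω]
    [MulAction.IsPretransitive (Matrix.symplecticGroup (Fin (m + 1)) F) Ω]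
    (hΩ : 2 ≤ Fintype.card Ω) :
    2 ^ m * (2 ^ (m + 1) - 1) ≤ Fintype.card Ω := by
  have hpow : 2 ^ m * (2 ^ (m + 1) - 1) = 2 * 2 ^ (2 * m) - 2 ^ m := by
    rw [Nat.mul_sub, mul_one, ← pow_add, two_mul m, ← add_assoc, pow_succ, mul_comm]
  have hp1 : 1 ≤ 2 ^ m := Nat.one_le_two_pow
  have hp2 : 2 ^ m ≤ 2 ^ (2 * m) := Nat.pow_le_pow_right (by omega) (by omega)
  obtain ⟨ω, hω⟩ : ∃ ω : Ω, tr (m + 1) (eVec F m) • ω ≠ ω := by
    by_contra hc
    push Not at hc
    let K := (MulAction.toPermHom (Matrix.symplecticGroup (Fin (m + 1)) F) Ω).ker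
    have hK : K = ⊤ := sp_eq_top_of_spT (m + 1) _ fun a c => by
      rw [MonoidHom.mem_ker]
      rcases two_cases hF c with rfl | rfl
      · rw [spT_zero_right, map_one]
      rcases eq_or_ne a 0 with rfl | ha
      · rw [spT_zero, map_one]
      obtain ⟨g, hg⟩ := sp_transitive (m + 1) (by simp [eVec] : eVec F m ≠ 0) ha
      refine Equiv.ext fun y => ?_
      change tr (m + 1) a • y = y
      obtain ⟨y', rfl⟩ : ∃ y', g • y' = y := ⟨g⁻¹ • y, smul_inv_smul g y⟩
      rw [← hg, ← smul_tr, hc]
    obtain ⟨a, b, hab⟩ := Fintype.one_lt_card_iff.1 hΩ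
    obtain ⟨g, hg⟩ := MulAction.exists_smul_eq (Matrix.symplecticGroup (Fin (m + 1)) F) a b
    have hgK : g ∈ K := by rw [hK]; trivial
    exact hab (((Equiv.ext_iff.1 (MonoidHom.mem_ker.1 hgK) a).symm).trans hg)
  by_contra hlt
  rw [hpow] at hlt
  push Not at hlt
  have hne : ∀ y : Ω, ¬ tr (m + 1) (eVec F m) • y = y →
      projStab (m := m) hF y = ⊤ := by
    intro y hy
    refine eq_top_of_ann hF fun a ha => ?_
    by_contra ha0
    have h := lt_card_same hF (by omega) y ha0 ha (c := 2) two_pos
      (Or.inr ⟨rfl, fun h => hy (fixes_central.1 h)⟩)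
    have := h.trans_le (Finset.card_le_univ _)
    omega
  obtain ⟨v, hv⟩ := exists_graph hF (fun h => hω (fixes_central.1 h)) (hne ω hω)
  have hmov := card_moved hF (fun h => hω (fixes_central.1 h)) hv
  refine hω (centre_fixes hF hm (fun y => ?_) ω)
  by_cases hy : tr (m + 1) (eVec F m) • y = y
  swap
  · exact hne y hy
  refine eq_top_of_ann hF fun a ha => ?_
  by_contra ha0
  have h := lt_card_same hF (by omega) y ha0 ha (c := 1) one_pos (Or.inl rfl)
  simp only [hy, iff_true] at h
  have htot := Finset.card_filter_add_card_filter_not (s := (Finset.univ : Finset Ω))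
    fun z : Ω => tr (m + 1) (eVec F m) • z = z
  rw [Finset.card_univ] at htot
  have h4 : 4 ≤ 2 ^ (2 * m) := by
    calc 4 = 2 ^ 2 := by norm_num
      _ ≤ _ := Nat.pow_le_pow_right (by omega) (by omega)
  omega

end Cfsg.Agent.Lib.MinIndexSpTwo
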